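import Cfsg.Agent.Lib.SporRecognition.CosetCert.Upper
import Cfsg.Agent.Lib.FusionExamples.J4Sub.TopP.Steps1

/-! Generated coset-enumeration certificate: J4P over <y, x * y * x * (y⁻¹) * x * y * (x⁻¹) * y * (x⁻¹) * (y⁻¹) * (x⁻¹), x * y * x * y * x * (y⁻¹) * x * y * x * y * (x⁻¹) * (y⁻¹) * (x⁻¹) * y * (x⁻¹) * (y⁻¹) * (x⁻¹) * (y⁻¹) * (x⁻¹), x * y * x * y * x * (y⁻¹) * x * (y⁻¹) * x * y * (x⁻¹) * y * (x⁻¹) * y * (x⁻¹) * (y⁻¹) * (x⁻¹) * (y⁻¹) * (x⁻¹), x * (y⁻¹) * x * y * (x⁻¹) * y * (x⁻¹), x * y * x * y * x * y * x * (y⁻¹) * x * y * (x⁻¹) * y * (x⁻¹) * (y⁻¹) * (x⁻¹) * (y⁻¹) * (x⁻¹) * (y⁻¹) * (x⁻¹), x * y * x * y * x * y * x * y * x * (y⁻¹) * x * (y⁻¹) * (x⁻¹) * (y⁻¹) * (x⁻¹) * (y⁻¹) * (x⁻¹) * (y⁻¹) * (x⁻¹) * (y⁻¹) * (x⁻¹)>, 24 cosets. -/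

set_option autoImplicit false
set_option maxRecDepth 20000
set_option linter.all false
set_option Elab.async false

namespace CfsgLib.FusionExamples.J4Sub.TopP

open CfsgLib.SporRecognition.CosetCert

theorem defs_ok : allBelow 5 23 (defStep inv fact) = true := by decide +kernel

theorem final1 : allBelow 5 24 (finalStep fact node item1 T1 72 1 24) = true := by decide +kernel

theorem final2 : allBelow 5 24 (finalStep fact node item2 T2 72 2 24) = true := by decide +kernel

theorem final3 : allBelow 5 24 (finalStep fact node item3 T3 72 3 24) = true := by decide +kernel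

theorem final4 : allBelow 5 24 (finalStep fact node item4 T4 72 4 24) = true := by decide +kernel

theorem final5 : allBelow 5 24 (finalStep fact node item5 T5 72 5 24) = true := by decide +kernel

theorem final6 : allBelow 5 24 (finalStep fact node item6 T6 72 6 24) = true := by decide +kernel

theorem relW_one : ∀ w ∈ relW, evalW (PresentedGroup.of (rels := (Cfsg.Spor.coxRelators CfsgLib.FusionExamples.J4Sub.edges ∪ {r | r ∈ CfsgLib.FusionExamples.J4Sub.extra}))) w = 1 := by
  have h : coxW CfsgLib.FusionExamples.J4Sub.edges pairs extraW = relW := by decide +kernel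
  rw [← h]
  exact coxW_eq_one (by decide +kernel) rfl

noncomputable def tabU : Cfsg.Spor.J4.Gen → Nat → Nat := fun a => tabs a true

theorem sect : ∃ s : Nat → PresentedGroup (Cfsg.Spor.coxRelators CfsgLib.FusionExamples.J4Sub.edges ∪ {r | r ∈ CfsgLib.FusionExamples.J4Sub.extra}) ⧸ wordSubgroup (Cfsg.Spor.coxRelators CfsgLib.FusionExamples.J4Sub.edges ∪ {r | r ∈ CfsgLib.FusionExamples.J4Sub.extra}) subW,
    s 0 = ((1 : PresentedGroup (Cfsg.Spor.coxRelators CfsgLib.FusionExamples.J4Sub.edges ∪ {r | r ∈ CfsgLib.FusionExamples.J4Sub.extra})) : PresentedGroup (Cfsg.Spor.coxRelators CfsgLib.FusionExamples.J4Sub.edges ∪ {r | r ∈ CfsgLib.FusionExamples.J4Sub.extra}) ⧸ wordSubgroup (Cfsg.Spor.coxRelators CfsgLib.FusionExamples.J4Sub.edges ∪ {r | r ∈ CfsgLib.FusionExamples.J4Sub.extra}) subW) ∧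
    ∀ a ∈ ([.x, .y, .t] : List Cfsg.Spor.J4.Gen), ∀ u, u < 24 → tabU a u < 24 ∧
      (PresentedGroup.of (rels := (Cfsg.Spor.coxRelators CfsgLib.FusionExamples.J4Sub.edges ∪ {r | r ∈ CfsgLib.FusionExamples.J4Sub.extra})) a) • s u = s (tabU a u) :=
  section_of_checks invols relW relW_one (by decide +kernel) subW lets data rtriv rroot 14 21 rfl rfl
    (by decide +kernel) (by decide +kernel) (fun k hk => allBelow_spec defs_ok k hk) (covers1) (by decide +kernel)
    (by
      intro i hi u hu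
      have hi' : i < 6 := hi
      interval_cases i
      · exact allBelow_spec final1 u hu
      · exact allBelow_spec final2 u hu
      · exact allBelow_spec final3 u hu
      · exact allBelow_spec final4 u hu
      · exact allBelow_spec final5 u hu
      · exact allBelow_spec final6 u hu
      ) [.x, .y, .t] tabU (by
      intro a ha
      fin_cases ha
      · exact ⟨0, by decide, rfl, rfl⟩
      · exact ⟨2, by decide, rfl, rfl⟩
      · exact ⟨4, by decide, rfl, rfl⟩
      )

end CfsgLib.FusionExamples.J4Sub.TopP
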